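import Cfsg.Agent.H377.RowTriA

/-!
# Triality in the row `PΩ₈⁺(q)` of S4329: the elements (helper377)
-/

set_option autoImplicit false
set_option linter.unusedSectionVars false
set_option linter.style.haveILetI false

namespace Cfsg.Agent.H377.RowTri

open QuadraticMap Module Subgroup
open Cfsg.Agent.LieClassical.OrthCore Cfsg.Agent.LieClassical.OrthTrans Cfsg.Agent.LieClassical.OrthForms
open Cfsg.Agent.ClassicalGeometry.OrthAut1
open Cfsg.Agent.ClassicalGeometry.OrthSemi
open Cfsg.Agent.H568 Cfsg.Agent.H377.Fpf Cfsg.Agent.H377.RowOrth Cfsg.Agent.H377.RowNum Cfsg.Agent.H377.RowOPlus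
open Cfsg.Agent.H182.Cent (Inv IsoP fixS mem_fixS NonDeg)

section Pull

variable {F U V : Type*} [Field F] [AddCommGroup U] [Module F U] [AddCommGroup V] [Module F V]

/-- transport of a bijection -/
def pull (e : U ≃ₗ[F] V) (g : V ≃ₗ[F] V) : U ≃ₗ[F] U := e.trans (g.trans e.symm)

theorem pull_apply (e : U ≃ₗ[F] V) (g : V ≃ₗ[F] V) (u : U) : pull e g u = e.symm (g (e u)) := rfl

theorem pull_one (e : U ≃ₗ[F] V) : pull e 1 = 1 := by
  apply LinearEquiv.ext
  intro u
  rw [pull_apply]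
  exact e.symm_apply_apply u

theorem pull_mul (e : U ≃ₗ[F] V) (g h : V ≃ₗ[F] V) : pull e (g * h) = pull e g * pull e h := by
  apply LinearEquiv.ext
  intro u
  rw [LinearEquiv.mul_apply, pull_apply, pull_apply, pull_apply, LinearEquiv.apply_symm_apply]
  rfl

theorem pull_pow (e : U ≃ₗ[F] V) (g : V ≃ₗ[F] V) (k : ℕ) : pull e (g ^ k) = pull e g ^ k := by
  induction k with
  | zero => rw [pow_zero, pow_zero, pull_one]
  | succ k ih => rw [pow_succ, pow_succ, pull_mul, ih]

/-- an isometry is bijective -/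
theorem exists_equiv [FiniteDimensional F V] {R : QuadraticForm F V} (hR : Nondeg R) (g : Module.End F V)
    (hg : ∀ v, R (g v) = R v) : ∃ G : V ≃ₗ[F] V, (∀ v, G v = g v) ∧ ∀ k : ℕ, g ^ k = 1 → G ^ k = 1 := by
  have hinj : Function.Injective g := by
    rw [injective_iff_map_eq_zero]
    intro v hv
    apply hR
    intro w
    have : polar R (g v) (g w) = polar R v w := by
      rw [polar, ← map_add, hg, hg, hg]
      rfl
    rw [← this, hv, QuadraticMap.polar_zero_left]
  refine ⟨LinearEquiv.ofInjectiveEndo g hinj, fun v => rfl, fun k hk => ?_⟩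
  have h1 : ∀ (k : ℕ) (v : V), ((LinearEquiv.ofInjectiveEndo g hinj) ^ k) v = (g ^ k) v := by
    intro k
    induction k with
    | zero => exact fun v => rfl
    | succ k ih =>
      intro v
      rw [pow_succ, LinearEquiv.mul_apply, ih, pow_succ]
      rfl
  apply LinearEquiv.ext
  intro v
  rw [h1, hk]
  rfl

end Pull

variable {F : Type} [Field F] [Fintype F]

/-- A totally singular subspace of a nondegenerate subspace has at most half the dimension. -/
theorem two_mul_le {V : Type*} [AddCommGroup V] [Module F V] [FiniteDimensional F V] {R : QuadraticForm F V}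
    {Z : Submodule F V} (hZ : NonDeg (polar ⇑R) Z) {D : Submodule F V} (hDZ : D ≤ Z) (hD : ∀ u ∈ D, R u = 0) :
    2 * finrank F D ≤ finrank F Z := by
  have hZ' : Nondeg (R.comp Z.subtype) := by
    intro v hv
    exact Subtype.ext (hZ v v.2 fun w hw => hv ⟨w, hw⟩)
  have h1 := Cfsg.Agent.H955.two_mul_finrank_le (Q := R.comp Z.subtype) hZ'
    (U := D.comap Z.subtype) (fun u hu => hD _ hu)
  rwa [(Submodule.comapSubtypeEquivOfLe hDZ).finrank_eq] at h1

/-- An element of order `l` (with `q` of order `4` modulo `l`) fixing a vector leaves no maximal totally singular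
subspace invariant. -/
theorem no_four_of_fix {l : ℕ} (hl : Prm (Nat.card F) 1 4 l) {X : ↥(E (plusForm 4 F))} (hX : X ^ l = 1) (hX1 : X ≠ 1)
    {v : Fin 4 ⊕ Fin 4 → F} (hv0 : v ≠ 0)
    (hXv : (X : (Fin 4 ⊕ Fin 4 → F) ≃ₗ[F] (Fin 4 ⊕ Fin 4 → F)) v = v) (W : Submodule F (Fin 4 ⊕ Fin 4 → F))
    (hW : TS (plusForm 4 F) W) (hW4 : finrank F W = 4) :
    ¬ ∀ w ∈ W, (X : (Fin 4 ⊕ Fin 4 → F) ≃ₗ[F] (Fin 4 ⊕ Fin 4 → F)) w ∈ W := by
  intro hinv
  obtain ⟨x, hx⟩ : ∃ x, x = toEnd (X : (Fin 4 ⊕ Fin 4 → F) ≃ₗ[F] (Fin 4 ⊕ Fin 4 → F)) := ⟨_, rfl⟩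
  have hxv : ∀ v, x v = (X : (Fin 4 ⊕ Fin 4 → F) ≃ₗ[F] (Fin 4 ⊕ Fin 4 → F)) v := fun v => by rw [hx]; rfl
  have hq2 : 2 ≤ Nat.card F := Finite.one_lt_card
  have hF : Nat.card F = Nat.card F ^ 1 := (pow_one _).symm
  have hI : IsoQ (plusForm 4 F) x l := by
    rw [hx]
    exact isoQ_of (good le_rfl) hl.prime (hl.ne_two hq2 (by omega)) (prm_ne_zero hq2 (by omega) hF hl) hX hX1
  have hV : finrank F (Fin 4 ⊕ Fin 4 → F) = 8 := by rw [Module.finrank_fintype_fun_eq_card, card_idx]
  have hm : ∀ j, l ∣ Nat.card F ^ (2 * j) - 1 → 2 ∣ j := by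
    intro i hi
    have h1 := (hl.dvd_q_iff hq2 one_pos hF _).1 hi
    omega
  obtain ⟨j, hj, hj2⟩ := hI.block_dim hm hI.isoP.invY hI.isoP.nonDegY fun z hz => hI.isoP.fixY hz
  have hadd := hI.isoP.finrank_add
  have hfix0 : finrank F (fixS x) ≠ 0 := by
    intro h0
    have h1 := Submodule.finrank_eq_zero.1 h0
    have h2 : v ∈ fixS x := mem_fixS.2 (by rw [hxv]; exact hXv)
    rw [h1] at h2
    exact hv0 ((Submodule.mem_bot F).1 h2)
  have hj0 : j ≠ 0 := by
    rintro rfl
    exact hI.isoP.Y_ne_bot (Submodule.finrank_eq_zero.1 (by omega))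
  have hY4 : finrank F (IsoP.Y (sform (plusForm 4 F)) x) = 4 := by omega
  have hC4 : finrank F (fixS x) = 4 := by omega
  -- the part in `Y`
  have hWx : Inv x W := fun w hw => by rw [hxv]; exact hinv w hw
  have hD := two_mul_le hI.isoP.nonDegY (D := W ⊓ IsoP.Y (sform (plusForm 4 F)) x) inf_le_right
    (fun u hu => hW u hu.1)
  have hD1 := Cfsg.Agent.H182.Cent.dvd_pow_sub_one hI.prime hI.pow (Z := W ⊓ IsoP.Y (sform (plusForm 4 F)) x)
    (hWx.inf hI.isoP.invY) (fun u hu h => hI.isoP.fixY hu.2 h)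
  have hD2 := (hl.dvd_q_iff hq2 one_pos hF _).1 hD1
  have hD0 : W ⊓ IsoP.Y (sform (plusForm 4 F)) x = ⊥ := by
    apply Submodule.finrank_eq_zero.1
    by_contra h0
    have := Nat.le_of_dvd (Nat.pos_of_ne_zero h0) hD2
    omega
  have hWC : W ≤ fixS x := by
    intro w hw
    rw [mem_fixS]
    have h1 : x w - w ∈ W ⊓ IsoP.Y (sform (plusForm 4 F)) x := by
      refine ⟨W.sub_mem (hWx w hw) hw, ?_⟩
      intro c hc
      rw [mem_fixS] at hc
      change polar ⇑(plusForm 4 F) (x w - w) c = 0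
      rw [polar_sub_left]
      have h2 := hI.isoP.isom w c
      rw [hc] at h2
      rw [h2, sub_self]
    rw [hD0] at h1
    exact sub_eq_zero.1 ((Submodule.mem_bot F).1 h1)
  have h3 := two_mul_le hI.isoP.compl.1 hWC (fun u hu => hW u hu)
  omega

theorem isom_equiv {U V : Type*} [AddCommGroup U] [Module F U] [AddCommGroup V] [Module F V] {Q : QuadraticForm F U}
    {R : QuadraticForm F V} (e : U ≃ₗ[F] V) (he : ∀ u, R (e u) = Q u) {G : V ≃ₗ[F] V} (hG : ∀ v, R (G v) = R v) :
    pull e G ∈ O Q := by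
  intro u
  rw [pull_apply, ← he, LinearEquiv.apply_symm_apply, hG, he]

/-- The element for characteristic not three. -/
theorem exists_four {l : ℕ} (hl : Prm (Nat.card F) 1 4 l) :
    ∃ X : ↥(E (plusForm 4 F)), X ^ l = 1 ∧ X ≠ 1 ∧ ∃ v : Fin 4 ⊕ Fin 4 → F, v ≠ 0 ∧ plusForm 4 F v = 0 ∧
      (X : (Fin 4 ⊕ Fin 4 → F) ≃ₗ[F] (Fin 4 ⊕ Fin 4 → F)) v = v := by
  have hq2 : 2 ≤ Nat.card F := Finite.one_lt_card
  have hlp : l ∣ Nat.card F ^ 2 + 1 := hl.dvd_plus (m := 2) hq2 one_pos (by norm_num) (pow_one _).symm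
  obtain ⟨-, Q1, g1, hQ1, hs1, hg1, ho1⟩ := elt_tor_minus (F := F) (k := 2) (by norm_num) hlp
  obtain ⟨-, Q2, g2, hQ2, hs2, hg2, ho2⟩ := elt_one_minus (F := F) (n := 2) (by norm_num)
  have hs : HasSign (⇑(sumQ Q1 Q2)) 4 1 := by
    have h0 := hs1.prod hs2
    rw [show (-1 : ℤ) * -1 = 1 by norm_num] at h0
    exact h0
  have hdim : finrank F ((Fin (2 * 2) → F) × (Fin (2 * 2) → F)) = 2 * 4 := by
    rw [Module.finrank_prod, Module.finrank_fin_fun]
  obtain ⟨e, he⟩ := exists_plus (by norm_num) hdim (sumQ Q1 Q2) (sumQ_nondeg hQ1 hQ2) hs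
  obtain ⟨G, hG, hGp⟩ := exists_equiv (sumQ_nondeg hQ1 hQ2) (g1.prodMap (1 : Module.End F (Fin (2 * 2) → F))) (by
    intro v
    rw [sumQ_apply, sumQ_apply, LinearMap.prodMap_apply, hg1]
    rfl)
  have hGR : ∀ v, sumQ Q1 Q2 (G v) = sumQ Q1 Q2 v := by
    intro v
    rw [hG, sumQ_apply, sumQ_apply, LinearMap.prodMap_apply, hg1]
    rfl
  have he' : ∀ u, sumQ Q1 Q2 (e u) = plusForm 4 F u := by
    intro u
    rw [he, coe_plusForm]
  have hO := isom_equiv e he' hGR
  have hGl : G ^ l = 1 := by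
    apply hGp
    have h1 : g1 ^ l = 1 := by rw [← ho1]; exact pow_orderOf_eq_one g1
    have h2 : (g1.prodMap (1 : Module.End F (Fin (2 * 2) → F))) =
        LinearMap.prodMapRingHom F (Fin (2 * 2) → F) (Fin (2 * 2) → F) (g1, 1) := rfl
    rw [h2, ← map_pow, Prod.pow_mk, h1, one_pow]
    exact map_one _
  have hpl : pull e G ^ l = 1 := by rw [← pull_pow, hGl, pull_one]
  have hE := Cfsg.Agent.ETable.Orth.mem_E_of_pow (good (F := F) le_rfl) hO
    (hl.prime.odd_of_ne_two (hl.ne_two hq2 (by omega))) hpl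
  obtain ⟨w, hw0, hw, -⟩ := Cfsg.Agent.LieClassical.OrthFinite.exists_sing_perp (Q := Q2) (n := 0) ![] (by
    rw [Module.finrank_fin_fun]; norm_num)
  refine ⟨⟨pull e G, hE⟩, Subtype.ext hpl, ?_, e.symm (0, w), ?_, ?_, ?_⟩
  · intro h1
    have h2 : pull e G = 1 := congrArg Subtype.val h1
    have h3 : g1 = 1 := by
      apply LinearMap.ext
      intro v
      have h4 : pull e G (e.symm (v, 0)) = e.symm (v, 0) := by rw [h2]; rfl
      rw [pull_apply, LinearEquiv.apply_symm_apply, hG] at h4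
      have h5 := e.symm.injective h4
      exact congrArg Prod.fst h5
    rw [h3, orderOf_one] at ho1
    exact hl.prime.one_lt.ne ho1
  · intro h0
    have h1 := e.symm.map_eq_zero_iff.1 h0
    exact hw0 (congrArg Prod.snd h1)
  · rw [← he', LinearEquiv.apply_symm_apply, sumQ_apply, QuadraticMap.map_zero, zero_add]
    exact hw
  · change pull e G (e.symm (0, w)) = e.symm (0, w)
    rw [pull_apply, LinearEquiv.apply_symm_apply, hG, LinearMap.prodMap_apply, map_zero]
    rfl

/-- An isometry of an anisotropic plane whose square fixes a nonzero vector (odd characteristic). -/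
theorem sq_eq_one_of_fix {V : Type*} [AddCommGroup V] [Module F V] [FiniteDimensional F V] (h2 : (2 : F) ≠ 0)
    {R : QuadraticForm F V} (hV : finrank F V = 2)
    (ha : ∀ v, R v = 0 → v = 0) (g : Module.End F V) (hg : ∀ v, R (g v) = R v) {v : V} (hv0 : v ≠ 0)
    (hv : g (g v) = v) : g ^ 2 = 1 := by
  have hpol : ∀ v w, polar R (g v) (g w) = polar R v w := by
    intro v w
    rw [polar, ← map_add, hg, hg, hg]
    rfl
  -- an eigenvector with eigenvalue `± 1`
  obtain ⟨u, c, hu0, hc, hu⟩ : ∃ (u : V) (c : F), u ≠ 0 ∧ c * c = 1 ∧ g u = c • u := by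
    by_cases h1 : g v = -v
    · exact ⟨v, -1, hv0, by ring, by rw [h1, neg_one_smul]⟩
    · refine ⟨v + g v, 1, ?_, by ring, ?_⟩
      · intro h3
        exact h1 (eq_neg_of_add_eq_zero_right h3)
      · rw [map_add, hv, one_smul, add_comm]
  have hRu : R u ≠ 0 := fun h => hu0 (ha u h)
  have hpu : polar R u u ≠ 0 := by
    rw [polar_self']
    exact mul_ne_zero h2 hRu
  -- the orthogonal complement
  let D : Submodule F V := LinearMap.ker (polarBilin R u)
  have hD : ∀ z, z ∈ D ↔ polar R u z = 0 := fun z => LinearMap.mem_ker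
  have hDg : ∀ z ∈ D, g z ∈ D := by
    intro z hz
    rw [hD] at hz ⊢
    have h3 := hpol u z
    rw [hu, polar_smul_left, hz, smul_eq_mul] at h3
    have hc0 : c ≠ 0 := by
      rintro rfl
      simp at hc
    exact (mul_eq_zero.1 h3).resolve_left hc0
  have hD1 : finrank F D ≤ 1 := by
    have h3 := LinearMap.finrank_range_add_finrank_ker (polarBilin R u)
    have h4 : 0 < finrank F (LinearMap.range (polarBilin R u)) := by
      rw [Module.finrank_pos_iff, Submodule.nontrivial_iff_ne_bot, ne_eq, LinearMap.range_eq_bot]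
      intro h5
      exact hpu (LinearMap.congr_fun h5 u)
    have h5 : finrank F D = finrank F (LinearMap.ker (polarBilin R u)) := rfl
    omega
  have hDsq : ∀ z ∈ D, g (g z) = z := by
    intro z hz
    by_cases hz0 : z = 0
    · rw [hz0, map_zero, map_zero]
    · obtain ⟨b, hb⟩ : ∃ b : F, b • z = g z := by
        have h3 : finrank F D = 1 := by
          have : 0 < finrank F D := by
            rw [Module.finrank_pos_iff, Submodule.nontrivial_iff_ne_bot]
            intro h4
            rw [h4] at hz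
            exact hz0 ((Submodule.mem_bot F).1 hz)
          omega
        obtain ⟨b, hb⟩ := exists_smul_eq_of_finrank_eq_one h3 (x := (⟨z, hz⟩ : D))
          (fun h => hz0 (congrArg Subtype.val h)) (⟨g z, hDg z hz⟩ : D)
        exact ⟨b, congrArg Subtype.val hb⟩
      have h3 := hg z
      rw [← hb, QuadraticMap.map_smul, smul_eq_mul] at h3
      have h4 : R z ≠ 0 := fun h => hz0 (ha z h)
      have h5 : b * b = 1 := by
        apply mul_right_cancel₀ h4
        rw [h3, one_mul]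
      rw [← hb, map_smul, ← hb, smul_smul, h5, one_smul]
  apply LinearMap.ext
  intro z
  rw [pow_two]
  change g (g z) = z
  have h3 : z - (polar R u z / polar R u u) • u ∈ D := by
    rw [hD, polar_sub_right, polar_smul_right, smul_eq_mul, div_mul_cancel₀ _ hpu, sub_self]
  have h4 := hDsq _ h3
  have h5 : g (g u) = u := by rw [hu, map_smul, hu, smul_smul, hc, one_smul]
  rw [map_sub, map_sub, map_smul, map_smul, h5] at h4
  exact sub_left_injective h4

end Cfsg.Agent.H377.RowTri
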