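import Cfsg.Agent.H377.RowTriB

/-!
# The row `PΩ₈⁺(q)` of S4329 (helper377)
-/

set_option autoImplicit false
set_option linter.unusedSectionVars false
set_option linter.style.haveILetI false

namespace Cfsg.Agent.H377.RowTri

open QuadraticMap Module Subgroup
open Cfsg.Agent.LieClassical.OrthCore Cfsg.Agent.LieClassical.OrthTrans Cfsg.Agent.LieClassical.OrthForms
open Cfsg.Agent.ClassicalGeometry.OrthAut1
open Cfsg.Agent.ClassicalGeometry.OrthSemi
open Cfsg.Agent.H568 Cfsg.Agent.H377.Fpf Cfsg.Agent.H377.RowOrth Cfsg.Agent.H377.RowNum Cfsg.Agent.H377.RowOPlus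
open Cfsg.Agent.H182.Cent (Inv IsoP fixS mem_fixS NonDeg)

variable {F : Type} [Field F] [Fintype F]

/-- characteristic not three -/
theorem tri_ne_three (h3 : (3 : F) ≠ 0) :
    ∃ x : PO 4 F, ¬ 3 ∣ orderOf x ∧ PCent 3 x ∧ ∀ b : MulAut (PO 4 F), b ∉ (Psi (plusForm 4 F)).range → b x ≠ x := by
  have hq2 : 2 ≤ Nat.card F := Finite.one_lt_card
  haveI : Fact (Nat.Prime 3) := ⟨Nat.prime_three⟩
  obtain ⟨l, hl⟩ := exists_prm (r := Nat.card F) (f := 1) (e := 4) hq2 (by norm_num) (by omega)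
  have hlt := hl.lt hq2 (by norm_num)
  have hl2 := hl.ne_two hq2 (by norm_num)
  obtain ⟨X, hX, hX1, v, hv0, hv, hXv⟩ := exists_four hl
  have hxl : (X : PO 4 F) ^ l = 1 := by
    change ((X ^ l : ↥(E (plusForm 4 F))) : PO 4 F) = 1
    rw [hX]
    rfl
  have hG := good (F := F) (n := 4) le_rfl
  refine ⟨(X : PO 4 F), ?_, ?_, ?_⟩
  · intro h
    have h4 := h.trans (orderOf_dvd_of_pow_eq_one hxl)
    rw [Nat.prime_dvd_prime_iff_eq Nat.prime_three hl.prime] at h4
    omega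
  · refine pcent hG (by norm_num) hl.prime (by omega) (by exact_mod_cast h3) hl2 ?_ hxl
    rw [card_idx]
    omega
  · intro b hb
    exact not_fixed hG (by rw [Module.finrank_fintype_fun_eq_card, card_idx]; norm_num) hb hv hv0 hXv
      (no_four_of_fix hl hX hX1 hv0 hXv)

/-- The elements for characteristic three. -/
theorem exists_xt (h3 : (3 : F) = 0) {f l : ℕ} (hf : 0 < f) (hF : Nat.card F = 3 ^ f) (hl : Prm 3 f 6 l) :
    ∃ X T : ↥(E (plusForm 4 F)), X ^ l = 1 ∧ X ≠ 1 ∧ T ^ (Nat.card F + 1) = 1 ∧ Commute X T ∧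
      (∃ v : Fin 4 ⊕ Fin 4 → F, v ≠ 0 ∧ plusForm 4 F v = 0 ∧
        (T : (Fin 4 ⊕ Fin 4 → F) ≃ₗ[F] (Fin 4 ⊕ Fin 4 → F)) v = v) ∧
      ∀ W : Submodule F (Fin 4 ⊕ Fin 4 → F), TS (plusForm 4 F) W → finrank F W = 4 →
        ¬ ∀ w ∈ W, (T : (Fin 4 ⊕ Fin 4 → F) ≃ₗ[F] (Fin 4 ⊕ Fin 4 → F)) w ∈ W := by
  have hq2 : 2 ≤ Nat.card F := Finite.one_lt_card
  have h2F : (2 : F) ≠ 0 := by
    intro h2
    have h4 : (1 : F) = 3 - 2 := by norm_num
    rw [h3, h2, sub_zero] at h4
    exact one_ne_zero h4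
  have hlp : l ∣ Nat.card F ^ 3 + 1 := hl.dvd_plus (m := 3) (by norm_num) hf (by norm_num) hF
  obtain ⟨-, Q1, g1, hQ1, hs1, hg1, ho1⟩ := elt_tor_minus (F := F) (k := 3) (by norm_num) hlp
  obtain ⟨-, Q2, g2, hQ2, hs2, hg2, ho2⟩ := elt_ell (F := F) (N := Nat.card F + 1) dvd_rfl
  have hs : HasSign (⇑(sumQ Q1 Q2)) 4 1 := by
    have h0 := hs1.prod hs2
    rw [show (-1 : ℤ) * -1 = 1 by norm_num] at h0
    exact h0
  have hdim : finrank F ((Fin (2 * 3) → F) × (Fin (2 * 1) → F)) = 2 * 4 := by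
    rw [Module.finrank_prod, Module.finrank_fin_fun, Module.finrank_fin_fun]
  have hfr2 : finrank F (Fin (2 * 1) → F) = 2 := by rw [Module.finrank_fin_fun]
  have haniso : ∀ w : Fin (2 * 1) → F, Q2 w = 0 → w = 0 := fun w hw => aniso_of_sign Q2 hQ2 hfr2 hs2 hw
  obtain ⟨e, he⟩ := exists_plus (by norm_num) hdim (sumQ Q1 Q2) (sumQ_nondeg hQ1 hQ2) hs
  have he' : ∀ u, sumQ Q1 Q2 (e u) = plusForm 4 F u := by
    intro u
    rw [he, coe_plusForm]
  obtain ⟨G, hG, hGp⟩ := exists_equiv (sumQ_nondeg hQ1 hQ2) (g1.prodMap (1 : Module.End F (Fin (2 * 1) → F))) (by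
    intro v
    rw [sumQ_apply, sumQ_apply, LinearMap.prodMap_apply, hg1]
    rfl)
  obtain ⟨H, hH, hHp⟩ := exists_equiv (sumQ_nondeg hQ1 hQ2) ((1 : Module.End F (Fin (2 * 3) → F)).prodMap g2) (by
    intro v
    rw [sumQ_apply, sumQ_apply, LinearMap.prodMap_apply, hg2]
    rfl)
  have hGR : ∀ v, sumQ Q1 Q2 (G v) = sumQ Q1 Q2 v := by
    intro v
    rw [hG, sumQ_apply, sumQ_apply, LinearMap.prodMap_apply, hg1]
    rfl
  have hHR : ∀ v, sumQ Q1 Q2 (H v) = sumQ Q1 Q2 v := by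
    intro v
    rw [hH, sumQ_apply, sumQ_apply, LinearMap.prodMap_apply, hg2]
    rfl
  have hGl : G ^ l = 1 := by
    apply hGp
    have h1 : g1 ^ l = 1 := by rw [← ho1]; exact pow_orderOf_eq_one g1
    have h2 : (g1.prodMap (1 : Module.End F (Fin (2 * 1) → F))) =
        LinearMap.prodMapRingHom F (Fin (2 * 3) → F) (Fin (2 * 1) → F) (g1, 1) := rfl
    rw [h2, ← map_pow, Prod.pow_mk, h1, one_pow]
    exact map_one _
  have hHl : H ^ (Nat.card F + 1) = 1 := by
    apply hHp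
    have h1 : g2 ^ (Nat.card F + 1) = 1 := by rw [← ho2]; exact pow_orderOf_eq_one g2
    have h2 : ((1 : Module.End F (Fin (2 * 3) → F)).prodMap g2) =
        LinearMap.prodMapRingHom F (Fin (2 * 3) → F) (Fin (2 * 1) → F) (1, g2) := rfl
    rw [h2, ← map_pow, Prod.pow_mk, h1, one_pow]
    exact map_one _
  have hGH : G * H = H * G := by
    apply LinearEquiv.ext
    rintro ⟨a, b⟩
    rw [LinearEquiv.mul_apply, LinearEquiv.mul_apply, hG, hH, hG, hH]
    rfl
  have hpl : pull e G ^ l = 1 := by rw [← pull_pow, hGl, pull_one]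
  have hl2 : l ≠ 2 := hl.ne_two (by norm_num) (by omega)
  have hE := Cfsg.Agent.ETable.Orth.mem_E_of_pow (good (F := F) le_rfl) (isom_equiv e he' hGR)
    (hl.prime.odd_of_ne_two hl2) hpl
  have hE2 := Cfsg.Agent.ETable.Orth.sq_mem_E (good (F := F) le_rfl) (isom_equiv e he' hHR)
  have hne1 : g2 ^ 2 ≠ 1 := by
    intro h1
    have h4 := orderOf_dvd_of_pow_eq_one h1
    rw [ho2] at h4
    have h5 := Nat.le_of_dvd (by norm_num) h4
    have h6 : 3 ≤ Nat.card F := by
      rw [hF]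
      calc 3 = 3 ^ 1 := (pow_one 3).symm
        _ ≤ 3 ^ f := Nat.pow_le_pow_right (by norm_num) hf
    omega
  obtain ⟨w, hw0, hw, -⟩ := Cfsg.Agent.LieClassical.OrthFinite.exists_sing_perp (Q := Q1) (n := 0) ![] (by
    rw [Module.finrank_fin_fun]; norm_num)
  refine ⟨⟨pull e G, hE⟩, ⟨pull e H * pull e H, hE2⟩, Subtype.ext hpl, ?_, ?_, ?_, ⟨e.symm (w, 0), ?_, ?_, ?_⟩, ?_⟩
  · intro h1
    have h2 : pull e G = 1 := congrArg Subtype.val h1
    have h3 : g1 = 1 := by
      apply LinearMap.ext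
      intro v
      have h4 : pull e G (e.symm (v, 0)) = e.symm (v, 0) := by rw [h2]; rfl
      rw [pull_apply, LinearEquiv.apply_symm_apply, hG] at h4
      have h5 := e.symm.injective h4
      exact congrArg Prod.fst h5
    rw [h3, orderOf_one] at ho1
    exact hl.prime.one_lt.ne ho1
  · apply Subtype.ext
    change (pull e H * pull e H) ^ (Nat.card F + 1) = 1
    rw [← pull_mul, ← pull_pow, (Commute.refl H).mul_pow, hHl, one_mul, pull_one]
  · apply Subtype.ext
    change pull e G * (pull e H * pull e H) = pull e H * pull e H * pull e G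
    rw [← pull_mul, ← pull_mul, ← pull_mul]
    congr 1
    rw [← mul_assoc, hGH, mul_assoc, hGH, mul_assoc]
  · intro h0
    have h1 := e.symm.map_eq_zero_iff.1 h0
    exact hw0 (congrArg Prod.fst h1)
  · rw [← he', LinearEquiv.apply_symm_apply, sumQ_apply, QuadraticMap.map_zero, add_zero]
    exact hw
  · change (pull e H * pull e H) (e.symm (w, 0)) = e.symm (w, 0)
    rw [← pull_mul, pull_apply, LinearEquiv.apply_symm_apply, LinearEquiv.mul_apply, hH, hH, LinearMap.prodMap_apply,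
      LinearMap.prodMap_apply, map_zero, map_zero]
    rfl
  · intro W hW hW4 hinv
    have hz : ∀ u ∈ W, (e u).2 = 0 := by
      intro u hu
      have h1 : (pull e H * pull e H) u ∈ W := hinv u hu
      have h2 : (pull e H * pull e H) u - u ∈ W := W.sub_mem h1 hu
      have h4 := hW _ h2
      rw [← pull_mul, pull_apply, LinearEquiv.mul_apply, hH, hH, LinearMap.prodMap_apply, LinearMap.prodMap_apply] at h4
      rw [← he', map_sub, LinearEquiv.apply_symm_apply, sumQ_apply] at h4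
      have h5 : ((((1 : Module.End F (Fin (2 * 3) → F)) ((1 : Module.End F (Fin (2 * 3) → F)) (e u).1),
          g2 (g2 (e u).2)) : (Fin (2 * 3) → F) × (Fin (2 * 1) → F)) - e u).1 = 0 := by
        change (e u).1 - (e u).1 = 0
        exact sub_self _
      rw [h5, QuadraticMap.map_zero, zero_add] at h4
      have h6 := haniso _ h4
      have h7 : g2 (g2 (e u).2) = (e u).2 := sub_eq_zero.1 h6
      by_contra hne
      exact hne1 (sq_eq_one_of_fix h2F hfr2 haniso g2 hg2 hne h7)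
    let φ : W →ₗ[F] (Fin (2 * 3) → F) := (LinearMap.fst F _ _).comp (e.toLinearMap.comp W.subtype)
    have hφ : Function.Injective φ := by
      rw [injective_iff_map_eq_zero]
      intro u hu
      have h1 : e (u : Fin 4 ⊕ Fin 4 → F) = 0 := Prod.ext hu (hz u u.2)
      exact Subtype.ext (e.map_eq_zero_iff.1 h1)
    have h4 := Cfsg.Agent.H955.two_mul_finrank_le hQ1 (U := LinearMap.range φ) (by
      rintro _ ⟨u, rfl⟩
      have h1 := hW u u.2
      rw [← he', sumQ_apply, hz u u.2, QuadraticMap.map_zero, add_zero] at h1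
      exact h1)
    rw [LinearMap.finrank_range_of_inj hφ, hW4, Module.finrank_fin_fun] at h4
    omega

/-- characteristic three -/
theorem tri_three (h3 : (3 : F) = 0) :
    ∃ x : PO 4 F, ¬ 3 ∣ orderOf x ∧ PCent 3 x ∧ ∀ b : MulAut (PO 4 F), b ∉ (Psi (plusForm 4 F)).range → b x ≠ x := by
  haveI : Fact (Nat.Prime 3) := ⟨Nat.prime_three⟩
  obtain ⟨r, f, hr, hf, hF, hrF⟩ := exists_char F
  obtain rfl : r = 3 := by
    haveI : CharP F 3 := by
      obtain ⟨c, hc⟩ := CharP.exists F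
      have hcp : c.Prime := CharP.char_is_prime F c
      have h1 : c ∣ 3 := (CharP.cast_eq_zero_iff F c 3).1 (by exact_mod_cast h3)
      rwa [(Nat.prime_dvd_prime_iff_eq hcp Nat.prime_three).1 h1] at hc
    have h1 : 3 ∣ r := (CharP.cast_eq_zero_iff F 3 r).1 hrF
    exact ((Nat.prime_dvd_prime_iff_eq Nat.prime_three hr).1 h1).symm
  obtain ⟨l, hl⟩ := exists_prm (r := 3) (f := f) (e := 6) (by norm_num) (by omega) (by omega)
  have hl2 : l ≠ 2 := hl.ne_two (by norm_num) (by omega)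
  have hlt := hl.lt (by norm_num) (by omega)
  obtain ⟨X, T, hX, hX1, hT, hXT, ⟨v, hv0, hv, hTv⟩, hno⟩ := exists_xt h3 hf hF hl
  have hG := good (F := F) (n := 4) le_rfl
  haveI := finite_PO (n := 4) (F := F)
  -- the factors
  have hco : Nat.Coprime l (Nat.card F + 1) := by
    rw [Nat.Prime.coprime_iff_not_dvd hl.prime]
    intro h
    have h1 : l ∣ Nat.card F ^ 2 - 1 := by
      have h2 : Nat.card F ^ 2 - 1 = (Nat.card F + 1) * (Nat.card F - 1) := by
        have := Nat.sq_sub_sq (Nat.card F) 1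
        rwa [one_pow] at this
      rw [h2]
      exact Dvd.dvd.mul_right h _
    have h2 := (hl.dvd_q_iff (by norm_num) hf hF 2).1 h1
    omega
  set x : PO 4 F := (X : PO 4 F) with hx
  set t : PO 4 F := (T : PO 4 F) with ht
  have hxl : x ^ l = 1 := by
    change ((X ^ l : ↥(E (plusForm 4 F))) : PO 4 F) = 1
    rw [hX]
    rfl
  have htq : t ^ (Nat.card F + 1) = 1 := by
    change ((T ^ (Nat.card F + 1) : ↥(E (plusForm 4 F))) : PO 4 F) = 1
    rw [hT]
    rfl
  have hxt : Commute x t := by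
    change ((X * T : ↥(E (plusForm 4 F))) : PO 4 F) = ((T * X : ↥(E (plusForm 4 F))) : PO 4 F)
    rw [hXT.eq]
  have hx1 : x ≠ 1 := by
    intro h1
    have h2 : X = 1 := by
      have h4 : ((X : ↥(E (plusForm 4 F))) : PO 4 F) = ((1 : ↥(E (plusForm 4 F))) : PO 4 F) := h1
      haveI := finite_E (plusForm 4 F)
      exact eq_of_lift (π := QuotientGroup.mk' (center ↥(E (plusForm 4 F))))
        (by rw [QuotientGroup.ker_mk']) hl.prime (not_dvd_center hG hl.prime hl2) h4 hX (one_pow _)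
    exact hX1 h2
  haveI : Fact l.Prime := ⟨hl.prime⟩
  have hxo : orderOf x = l := orderOf_eq_prime hxl hx1
  have hN : NoNorm 3 x := noNorm_own_y1 (n := 4) le_rfl (by norm_num) hf hF hl (by norm_num) (by exact_mod_cast h3) hxo
  -- powers
  obtain ⟨a, ha1, ha2⟩ := Nat.chineseRemainder hco 1 0
  obtain ⟨b, hb1, hb2⟩ := Nat.chineseRemainder hco 0 1
  have hpa : (x * t) ^ a = x := by
    rw [hxt.mul_pow]
    have h1 : x ^ a = x ^ 1 := pow_eq_pow_iff_modEq.2 (ha1.of_dvd (orderOf_dvd_of_pow_eq_one hxl))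
    have h2 : t ^ a = t ^ 0 := pow_eq_pow_iff_modEq.2 (ha2.of_dvd (orderOf_dvd_of_pow_eq_one htq))
    rw [h1, h2, pow_one, pow_zero, mul_one]
  have hpb : (x * t) ^ b = t := by
    rw [hxt.mul_pow]
    have h1 : x ^ b = x ^ 0 := pow_eq_pow_iff_modEq.2 (hb1.of_dvd (orderOf_dvd_of_pow_eq_one hxl))
    have h2 : t ^ b = t ^ 1 := pow_eq_pow_iff_modEq.2 (hb2.of_dvd (orderOf_dvd_of_pow_eq_one htq))
    rw [h1, h2, pow_one, pow_zero, one_mul]
  have hNN : NoNorm 3 (x * t) := by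
    intro Q hQ hn
    apply hN Q hQ
    rw [← hpa]
    exact pow_mem hn a
  refine ⟨x * t, hNN.not_dvd, hNN.pcent, fun c hc hfix => ?_⟩
  have h1 : c t = t := by rw [← hpb, map_pow, hfix]
  exact not_fixed hG (by rw [Module.finrank_fintype_fun_eq_card, card_idx]; norm_num) hc hv hv0 hTv hno h1

/-- **The row `n = 4`.** -/
theorem row_four {p : ℕ} [hp : Fact p.Prime] (hp2 : p ≠ 2) : Row p (PO 4 F) := by
  haveI := finite_PO (n := 4) (F := F)
  haveI := simple_PO (F := F) (n := 4) le_rfl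
  refine row_of (not_comm_PO le_rfl) fun a ha => ?_
  rcases coset_three (Psi (plusForm 4 F)).range Cfsg.Agent.AutOrth.Final.index_plus_four hp.1 hp2 a
    (ha ▸ pow_orderOf_eq_one a) with h | ⟨rfl, h⟩
  · exact semi_case le_rfl hp2 a ha h
  · right
    right
    obtain ⟨x, hx1, hx2, hx3⟩ : ∃ x : PO 4 F, ¬ 3 ∣ orderOf x ∧ PCent 3 x ∧
        ∀ b : MulAut (PO 4 F), b ∉ (Psi (plusForm 4 F)).range → b x ≠ x := by
      by_cases h3 : (3 : F) = 0
      · exact tri_three h3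
      · exact tri_ne_three h3
    exact ⟨x, hx1, hx2, fun g => hx3 _ (h g)⟩

end Cfsg.Agent.H377.RowTri

namespace Cfsg.Agent.H377

open Cfsg Cfsg.Agent.H568 Cfsg.Agent.LieClassical.OrthForms
open Cfsg.Agent.ClassicalGeometry.OrthSemiForms

/-- **The row `PΩ⁺_{2n}(q)` of S4329.** -/
theorem row_oplus {K : Type*} [Group K] (h : IsPOmegaPlus K) {p : ℕ} [hp : Fact p.Prime] (hp2 : p ≠ 2) : Row p K := by
  obtain ⟨F, _, _, m, hm, ⟨e⟩⟩ := h
  have hrow : Row p (RowOPlus.PO m F) := by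
    rcases Nat.eq_or_lt_of_le hm with rfl | hm5
    · exact RowTri.row_four hp2
    · exact RowOPlus.row_five hm5 hp2
  have e2 := pomegaEquiv (RowOPlus.good (F := F) hm)
  rw [coe_plusForm] at e2
  exact Row.congr (e.trans e2).symm hrow

end Cfsg.Agent.H377
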