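import Cfsg.Agent.H377.RowAut
import Cfsg.Agent.H377.RowOwn
import Cfsg.Agent.H377.ToOmega
import Cfsg.Agent.H777.ElimDef

/-!
# Abelian `3`-groups of isometries (helper377, for S5229)

`Ab F n ε N` : an abelian `3`-group of order `N` acts faithfully by isometries on a nondegenerate quadratic space of
dimension `2n` and sign `ε`.
-/

set_option autoImplicit false
set_option linter.unusedSectionVars false
set_option linter.style.haveILetI false

namespace Cfsg.Agent.H377.ThreeAb

open QuadraticMap Module Subgroup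
open Cfsg.Agent.LieClassical.OrthCore Cfsg.Agent.LieClassical.OrthTrans Cfsg.Agent.LieClassical.OrthForms
open Cfsg.Agent.ClassicalGeometry.OrthSemi
open Cfsg.Agent.H377 Cfsg.Agent.H377.RowOrth

variable (F : Type) [Field F] [Finite F]

/-- an abelian `3`-group of isometries of order `N` -/
def Ab (n : ℕ) (ε : ℤ) (N : ℕ) : Prop :=
  ∃ (A : Type) (_ : CommGroup A) (_ : Finite A) (Q : QuadraticForm F (Fin (2 * n) → F))
    (ρ : A →* Module.End F (Fin (2 * n) → F)), IsPGroup 3 A ∧ Nat.card A = N ∧ Function.Injective ρ ∧ Nondeg Q ∧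
      HasSign (⇑Q) n ε ∧ ∀ a v, Q (ρ a v) = Q v

variable {F}

theorem Ab.of {V : Type} [AddCommGroup V] [Module F V] [Finite V] {Q : QuadraticForm F V} {n : ℕ}
    (hn : finrank F V = 2 * n) (hQ : Nondeg Q) {ε : ℤ} (hs : HasSign (⇑Q) n ε) {A : Type} [CommGroup A] [Finite A]
    (ρ : A →* Module.End F V) (h3 : IsPGroup 3 A) (hρ : Function.Injective ρ) (hg : ∀ a v, Q (ρ a v) = Q v) :
    Ab F n ε (Nat.card A) := by
  have : Module.Finite F V := Module.Finite.of_finite
  let e : V ≃ₗ[F] (Fin (2 * n) → F) := (Module.finBasisOfFinrankEq F V hn).equivFun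
  refine ⟨A, inferInstance, inferInstance, Q.comp (e.symm : _ →ₗ[F] V),
    (LinearEquiv.conjRingEquiv e : Module.End F V →* Module.End F (Fin (2 * n) → F)).comp ρ, h3, rfl, ?_, ?_, ?_, ?_⟩
  · exact (LinearEquiv.conjRingEquiv e).injective.comp hρ
  · intro x hx
    have h1 : e.symm x = 0 := by
      apply hQ
      intro y
      have := hx (e y)
      change Q (e.symm (x + e y)) - Q (e.symm x) - Q (e.symm (e y)) = 0 at this
      rw [map_add, LinearEquiv.symm_apply_apply] at this
      exact this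
    exact (LinearEquiv.map_eq_zero_iff _).1 h1
  · refine hs.congr e.toEquiv fun v => ?_
    change Q (e.symm (e v)) = Q v
    rw [LinearEquiv.symm_apply_apply]
  · intro a v
    change Q (e.symm (e (ρ a (e.symm v)))) = Q (e.symm v)
    rw [LinearEquiv.symm_apply_apply, hg]

theorem Ab.prod {n n' : ℕ} {ε ε' : ℤ} {N N' : ℕ} (h : Ab F n ε N) (h' : Ab F n' ε' N') :
    Ab F (n + n') (ε * ε') (N * N') := by
  obtain ⟨A, _, _, Q, ρ, h3, hN, hρ, hQ, hs, hg⟩ := h
  obtain ⟨A', _, _, Q', ρ', h3', hN', hρ', hQ', hs', hg'⟩ := h'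
  let σ : A × A' →* Module.End F ((Fin (2 * n) → F) × (Fin (2 * n') → F)) :=
    { toFun := fun a => (ρ a.1).prodMap (ρ' a.2)
      map_one' := by
        apply LinearMap.ext
        intro v
        simp
      map_mul' := fun a b => by
        apply LinearMap.ext
        intro v
        simp }
  have hσ : ∀ a v, σ a v = (ρ a.1 v.1, ρ' a.2 v.2) := fun a v => rfl
  have h := Ab.of (V := (Fin (2 * n) → F) × (Fin (2 * n') → F)) (Q := sumQ Q Q') (n := n + n')
    (by rw [Module.finrank_prod, Module.finrank_fin_fun, Module.finrank_fin_fun]; ring)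
    (sumQ_nondeg hQ hQ') (hs.prod hs') σ ?_ ?_ ?_
  · rwa [Nat.card_prod, hN, hN'] at h
  · rintro ⟨a, b⟩
    obtain ⟨i, hi⟩ := h3 a
    obtain ⟨j, hj⟩ := h3' b
    refine ⟨i + j, ?_⟩
    rw [Prod.pow_mk, pow_add, pow_mul, hi, one_pow, mul_comm (3 ^ i), pow_mul, hj, one_pow]
    rfl
  · rintro ⟨a, b⟩ ⟨a', b'⟩ hab
    have h1 : ρ a = ρ a' := by
      apply LinearMap.ext
      intro v
      have h2 := LinearMap.congr_fun hab (v, 0)
      rw [hσ, hσ] at h2
      exact congrArg Prod.fst h2
    have h1' : ρ' b = ρ' b' := by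
      apply LinearMap.ext
      intro v
      have h2 := LinearMap.congr_fun hab (0, v)
      rw [hσ, hσ] at h2
      exact congrArg Prod.snd h2
    exact Prod.ext (hρ h1) (hρ' h1')
  · intro a v
    rw [hσ, sumQ_apply, sumQ_apply, hg, hg']

/-- trivial groups -/
theorem Ab.one {n : ℕ} {ε : ℤ} (h : Elt F n ε 1) : Ab F n ε 1 := by
  obtain ⟨-, Q, g, hQ, hs, hg, ho⟩ := h
  have h := Ab.of (A := Unit) (Q := Q) (by rw [Module.finrank_fin_fun]) hQ hs (1 : Unit →* Module.End F _)
    (fun a => ⟨0, rfl⟩) (fun a b _ => rfl) (fun a v => rfl)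
  rwa [Nat.card_unique] at h

/-- cyclic groups -/
theorem Ab.cyc {n : ℕ} {ε : ℤ} {k : ℕ} (h : Elt F n ε (3 ^ k)) : Ab F n ε (3 ^ k) := by
  obtain ⟨-, Q, g, hQ, hs, hg, ho⟩ := h
  have hu : g ^ (3 ^ k) = 1 := by rw [← ho]; exact pow_orderOf_eq_one g
  obtain ⟨u, hu'⟩ : IsUnit g := IsUnit.of_pow_eq_one hu (by positivity)
  have huo : orderOf u = 3 ^ k := by rw [← ho, ← hu', orderOf_units]
  have hfin : IsOfFinOrder u := by
    rw [← orderOf_pos_iff, huo]
    positivity
  haveI : Finite ↥(zpowers u) := by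
    apply Nat.finite_of_card_ne_zero
    rw [Nat.card_zpowers, huo]
    positivity
  letI : CommGroup ↥(zpowers u) := IsCyclic.commGroup
  have h := Ab.of (A := ↥(zpowers u)) (Q := Q) (by rw [Module.finrank_fin_fun]) hQ hs
    ((Units.coeHom (Module.End F (Fin (2 * n) → F))).comp (zpowers u).subtype) ?_ ?_ ?_
  · rwa [Nat.card_zpowers, huo] at h
  · exact IsPGroup.of_card (n := k) (by rw [Nat.card_zpowers, huo])
  · exact Units.val_injective.comp (zpowers u).subtype_injective
  · rintro ⟨a, ha⟩ v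
    obtain ⟨j, rfl⟩ := hfin.mem_powers_iff_mem_zpowers.2 ha
    change Q (((u ^ j : (Module.End F (Fin (2 * n) → F))ˣ) : Module.End F (Fin (2 * n) → F)) v) = Q v
    rw [Units.val_pow_eq_pow_val, hu']
    exact isom_pow hg j v

/-- several planes -/
theorem Ab.pow {ε : ℤ} {k : ℕ} (h : Elt F 1 ε (3 ^ k)) (s : ℕ) : Ab F s (ε ^ s) ((3 ^ k) ^ s) := by
  induction s with
  | zero =>
    have := Ab.one (elt_one (F := F) 0)
    simpa using this
  | succ s ih =>
    have := ih.prod (Ab.cyc h)
    rwa [← pow_succ, ← pow_succ] at this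

/-- From the isometries to the simple group. -/
theorem big_of {ι : Type} [Fintype ι] [DecidableEq ι] {Q : QuadraticForm F (ι → F)} (hG : Good Q) {V : Type}
    [AddCommGroup V] [Module F V] {R : QuadraticForm F V} (e : (ι → F) ≃ₗ[F] V) (c : F) (hc : c ≠ 0)
    (he : ∀ u, R (e u) = c * Q u) {A : Type} [CommGroup A] [Finite A] (ρ : A →* Module.End F V) (h3 : IsPGroup 3 A)
    (hρ : Function.Injective ρ) (hg : ∀ a v, R (ρ a v) = R v) (hcard : 3 ^ 6 ≤ Nat.card A) :
    Cfsg.Agent.H777.Elim.Big (↥(E Q) ⧸ center ↥(E Q)) := by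
  -- the linear equivalences
  let L : A →* (V ≃ₗ[F] V) := (LinearMap.GeneralLinearGroup.generalLinearEquiv F V).toMonoidHom.comp
    (MonoidHom.toHomUnits ρ)
  have hL : ∀ a v, L a v = ρ a v := fun a v => rfl
  let M : A →* ((ι → F) ≃ₗ[F] (ι → F)) :=
    { toFun := fun a => e.trans ((L a).trans e.symm)
      map_one' := by
        apply LinearEquiv.ext
        intro v
        change e.symm ((L 1) (e v)) = v
        rw [map_one]
        exact e.symm_apply_apply v
      map_mul' := fun a b => by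
        apply LinearEquiv.ext
        intro v
        change e.symm ((L (a * b)) (e v)) = e.symm ((L a) (e (e.symm ((L b) (e v)))))
        rw [map_mul, e.apply_symm_apply]
        rfl }
  have hM : ∀ a v, M a v = e.symm (ρ a (e v)) := fun a v => rfl
  have hMO : ∀ a, M a ∈ O Q := by
    intro a v
    apply mul_left_cancel₀ hc
    rw [← he, ← he, hM, e.apply_symm_apply, hg]
  have hME : ∀ a, M a ∈ E Q := by
    intro a
    obtain ⟨k, hk⟩ := h3 a
    refine Cfsg.Agent.ETable.Orth.mem_E_of_pow hG (hMO a) (n := 3 ^ k) (Odd.pow (by decide)) ?_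
    rw [← map_pow, hk, map_one]
  let f : A →* ↥(E Q) := M.codRestrict (E Q) hME
  refine Cfsg.Agent.H777.Elim.Big.of_hom (A := (⊤ : Subgroup A)) ((QuotientGroup.mk' (center ↥(E Q))).comp f) ?_ ?_ ?_ ?_
  · exact h3.to_subgroup _
  · intro x _ y _
    exact mul_comm x y
  · rwa [Subgroup.card_top]
  · intro x _ hx
    have h1 : f x ∈ center ↥(E Q) := (QuotientGroup.eq_one_iff (f x)).1 hx
    have h2 := center_sq hG h1
    have h4 : f (x ^ 2) = 1 := by rw [map_pow, h2]
    have hf : Function.Injective f := by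
      intro a b hab
      apply hρ
      apply LinearMap.ext
      intro v
      have h5 : M a (e.symm v) = M b (e.symm v) := by
        have h6 : M a = M b := congrArg Subtype.val hab
        rw [h6]
      rw [hM, hM, e.apply_symm_apply] at h5
      exact e.symm.injective h5
    have h5 : x ^ 2 = 1 := hf (h4.trans (map_one f).symm)
    obtain ⟨k, hk⟩ := h3 x
    have h6 : orderOf x ∣ Nat.gcd 2 (3 ^ k) :=
      Nat.dvd_gcd (orderOf_dvd_of_pow_eq_one h5) (orderOf_dvd_of_pow_eq_one hk)
    have h7 : Nat.gcd 2 (3 ^ k) = 1 := Nat.Coprime.pow_right k (by norm_num)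
    rw [h7, Nat.dvd_one, orderOf_eq_one_iff] at h6
    exact h6

end Cfsg.Agent.H377.ThreeAb
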