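import Cfsg.Agent.H377.ThreeAb
import Cfsg.Agent.S0292
import Cfsg.Agent.S0293
import Cfsg.Agent.S0294

/-!
# The orthogonal groups with Sylow `3`-subgroup of order `3 ^ 10` (helper377, for S5229 and S5231)
-/

set_option autoImplicit false
set_option linter.unusedSectionVars false
set_option linter.style.haveILetI false

namespace Cfsg.Agent.H377.ThreeRow

open QuadraticMap Module Subgroup Cfsg
open Cfsg.Agent.LieClassical.OrthCore Cfsg.Agent.LieClassical.OrthTrans Cfsg.Agent.LieClassical.OrthForms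
open Cfsg.Agent.LieClassical.OrthFinite
open Cfsg.Agent.ClassicalGeometry.OrthSemiForms
open Cfsg.Agent.H377 Cfsg.Agent.H377.RowOrth Cfsg.Agent.H377.ThreeAb
open Cfsg.Agent.H777.Elim

section Num

theorem fac_le {x k : ℕ} (hx : x ≠ 0) (h : ¬ 3 ^ (k + 1) ∣ x) : x.factorization 3 ≤ k := by
  by_contra hcon
  push Not at hcon
  exact h ((Nat.prime_three.pow_dvd_iff_le_factorization hx).2 hcon)

theorem zmod9 : ∀ x : ZMod 9, x * x ≠ 1 → (x * x * x * x * x * x * x * x * x = x ∨ x ^ 6 = 1) → x ^ 6 = 1 →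
    x ^ 2 ≠ 1 ∧ x ^ 4 ≠ 1 ∧ x ^ 8 ≠ 1 ∧ x ^ 10 ≠ 1 := by decide

theorem zmod27 : ∀ x : ZMod 27, x ^ 18 = 1 → (9 : ZMod 27) * (x ^ 2 - 1) = 0 → 3 * (x ^ 2 - 1) ≠ 0 →
    x ^ 6 ≠ 1 ∧ x ^ 12 ≠ 1 := by decide

theorem pow_eq_one_iff {q n j : ℕ} (hq : 0 < q) : ((q : ZMod n) ^ j = 1) ↔ n ∣ q ^ j - 1 := by
  rw [← ZMod.natCast_eq_zero_iff (q ^ j - 1) n, Nat.cast_sub (Nat.one_le_pow _ _ hq)]
  push_cast
  rw [sub_eq_zero]

/-- The product. -/
theorem not_dvd_prod {q : ℕ} (hq : 2 ≤ q) (h3 : ¬ 3 ∣ q) (h9 : ¬ 9 ∣ q ^ 2 - 1) :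
    ¬ 3 ^ 10 ∣ ∏ i ∈ Finset.range 6, (q ^ (2 * (i + 1)) - 1) := by
  have hq0 : 0 < q := by omega
  have hpos : ∀ i : ℕ, q ^ (2 * (i + 1)) - 1 ≠ 0 := by
    intro i
    have : 2 ^ 1 ≤ q ^ (2 * (i + 1)) :=
      (Nat.pow_le_pow_left hq 1).trans (Nat.pow_le_pow_right hq0 (by omega))
    omega
  have hco : Nat.Coprime q 9 := by
    have : Nat.Coprime q 3 := ((Nat.Prime.coprime_iff_not_dvd Nat.prime_three).2 h3).symm
    exact Nat.Coprime.pow_right 2 this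
  have hco27 : Nat.Coprime q 27 := by
    have : Nat.Coprime q 3 := ((Nat.Prime.coprime_iff_not_dvd Nat.prime_three).2 h3).symm
    exact Nat.Coprime.pow_right 3 this
  have h6 : ((q : ZMod 9)) ^ 6 = 1 := by
    have := ZMod.pow_totient (ZMod.unitOfCoprime q hco)
    have h1 := congrArg Units.val this
    rw [Units.val_pow_eq_pow_val, ZMod.coe_unitOfCoprime, Units.val_one] at h1
    exact h1
  have h18 : ((q : ZMod 27)) ^ 18 = 1 := by
    have := ZMod.pow_totient (ZMod.unitOfCoprime q hco27)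
    have h1 := congrArg Units.val this
    rw [Units.val_pow_eq_pow_val, ZMod.coe_unitOfCoprime, Units.val_one] at h1
    exact h1
  have h9' : ((q : ZMod 9)) ^ 2 ≠ 1 := fun h => h9 ((pow_eq_one_iff hq0).1 h)
  obtain ⟨a2, a4, a8, a10⟩ := zmod9 (q : ZMod 9) (by rwa [← pow_two]) (Or.inr h6) h6
  have h3sq : 3 ∣ q ^ 2 - 1 := by
    have h1 : ((q : ZMod 3)) ^ 2 = 1 := by
      have h2 : ((q : ZMod 3)) ≠ 0 := fun h => h3 ((ZMod.natCast_eq_zero_iff q 3).1 h)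
      revert h2
      generalize (q : ZMod 3) = x
      revert x
      decide
    exact (pow_eq_one_iff hq0).1 h1
  have hc : (((q ^ 2 - 1 : ℕ)) : ZMod 27) = (q : ZMod 27) ^ 2 - 1 := by
    rw [Nat.cast_sub (Nat.one_le_pow _ _ hq0)]
    push_cast
    rfl
  obtain ⟨b6, b12⟩ := zmod27 (q : ZMod 27) h18 (by
    obtain ⟨c, hc'⟩ := h3sq
    rw [← hc, hc']
    push_cast
    rw [← mul_assoc]
    have : (9 : ZMod 27) * 3 = 0 := by decide
    rw [this, zero_mul]) (by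
    intro h
    rw [← hc] at h
    have h1 : (((3 * (q ^ 2 - 1) : ℕ)) : ZMod 27) = 0 := by
      rw [Nat.cast_mul]
      exact h
    rw [ZMod.natCast_eq_zero_iff] at h1
    apply h9
    have h2 : 3 * 9 ∣ 3 * (q ^ 2 - 1) := h1
    exact Nat.dvd_of_mul_dvd_mul_left (by norm_num) h2)
  intro hdvd
  have hne : (∏ i ∈ Finset.range 6, (q ^ (2 * (i + 1)) - 1)) ≠ 0 := Finset.prod_ne_zero_iff.2 fun i _ => hpos i
  have h1 := (Nat.prime_three.pow_dvd_iff_le_factorization hne).1 hdvd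
  rw [Nat.factorization_prod fun i _ => hpos i, Finsupp.finsetSum_apply] at h1
  simp only [Finset.sum_range_succ, Finset.range_zero, Finset.sum_empty, zero_add] at h1
  have e1 : (q ^ (2 * 1) - 1).factorization 3 ≤ 1 := fac_le (hpos 0) fun h => a2 ((pow_eq_one_iff hq0).2 h)
  have e2 : (q ^ (2 * (1 + 1)) - 1).factorization 3 ≤ 1 := fac_le (hpos 1) fun h => a4 ((pow_eq_one_iff hq0).2 h)
  have e3 : (q ^ (2 * (2 + 1)) - 1).factorization 3 ≤ 2 := fac_le (hpos 2) fun h => b6 ((pow_eq_one_iff hq0).2 h)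
  have e4 : (q ^ (2 * (3 + 1)) - 1).factorization 3 ≤ 1 := fac_le (hpos 3) fun h => a8 ((pow_eq_one_iff hq0).2 h)
  have e5 : (q ^ (2 * (4 + 1)) - 1).factorization 3 ≤ 1 := fac_le (hpos 4) fun h => a10 ((pow_eq_one_iff hq0).2 h)
  have e6 : (q ^ (2 * (5 + 1)) - 1).factorization 3 ≤ 2 := fac_le (hpos 5) fun h => b12 ((pow_eq_one_iff hq0).2 h)
  omega

/-- `9 ∣ q ^ 2 - 1` or the rank is large. -/
theorem nine_or_rank {q N m X : ℕ} (hq : 2 ≤ q) (h3 : ¬ 3 ∣ q) (hX : 3 ^ 10 ∣ X)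
    (h : X ∣ q ^ N * ∏ i ∈ Finset.range m, (q ^ (2 * (i + 1)) - 1)) : 9 ∣ q ^ 2 - 1 ∨ 7 ≤ m := by
  by_contra hcon
  push Not at hcon
  obtain ⟨h9, hm⟩ := hcon
  apply not_dvd_prod hq h3 h9
  have h1 : 3 ^ 10 ∣ ∏ i ∈ Finset.range m, (q ^ (2 * (i + 1)) - 1) := by
    refine Nat.Coprime.dvd_of_dvd_mul_left ?_ (hX.trans h)
    exact Nat.Coprime.pow _ _ ((Nat.Prime.coprime_iff_not_dvd Nat.prime_three).2 h3)
  exact h1.trans (Finset.prod_dvd_prod_of_subset _ _ _ (Finset.range_subset_range.2 (by omega)))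

/-- The exponent `k`. -/
theorem exists_k {q m : ℕ} (hq : 2 ≤ q) (h3 : ¬ 3 ∣ q) (h : 9 ∣ q ^ 2 - 1 ∨ 7 ≤ m) :
    ∃ k, (3 ^ k ∣ q - 1 ∨ 3 ^ k ∣ q + 1) ∧ (k = 2 ∨ (k = 1 ∧ 7 ≤ m)) := by
  have h2 : q ^ 2 - 1 = (q + 1) * (q - 1) := by
    have := Nat.sq_sub_sq q 1
    rwa [one_pow] at this
  rcases h with h | h
  · refine ⟨2, ?_, Or.inl rfl⟩
    rw [h2] at h
    by_cases h4 : 3 ∣ q - 1
    · left
      have h5 : Nat.Coprime (3 ^ 2) (q + 1) := by
        apply Nat.Coprime.pow_left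
        rw [Nat.Prime.coprime_iff_not_dvd Nat.prime_three]
        omega
      exact h5.dvd_of_dvd_mul_left h
    · right
      have h5 : Nat.Coprime (3 ^ 2) (q - 1) := by
        apply Nat.Coprime.pow_left
        rw [Nat.Prime.coprime_iff_not_dvd Nat.prime_three]
        exact h4
      exact h5.dvd_of_dvd_mul_right h
  · refine ⟨1, ?_, Or.inr ⟨rfl, h⟩⟩
    rw [pow_one]
    omega

end Num

section

variable {F : Type} [Field F] [Fintype F]

theorem not_three_dvd (h3 : (3 : F) ≠ 0) : ¬ 3 ∣ Nat.card F := by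
  intro h
  apply h3
  obtain ⟨c, hc⟩ := CharP.exists F
  have hcp : c.Prime := CharP.char_is_prime F c
  haveI : Fact c.Prime := ⟨hcp⟩
  obtain ⟨n, hn, hcard⟩ := FiniteField.card F c
  rw [Nat.card_eq_fintype_card, hcard] at h
  have h1 := Nat.prime_three.dvd_of_dvd_pow h
  rw [Nat.prime_dvd_prime_iff_eq Nat.prime_three hcp] at h1
  subst h1
  exact_mod_cast CharP.cast_eq_zero F 3

theorem exists_elt {k : ℕ} (h : 3 ^ k ∣ Nat.card F - 1 ∨ 3 ^ k ∣ Nat.card F + 1) :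
    ∃ ε : ℤ, (ε = 1 ∨ ε = -1) ∧ Elt F 1 ε (3 ^ k) := by
  rcases h with h | h
  · exact ⟨1, Or.inl rfl, elt_hyp h⟩
  · exact ⟨-1, Or.inr rfl, elt_ell h⟩

theorem sign_pow {ε : ℤ} (h : ε = 1 ∨ ε = -1) (s : ℕ) : ε ^ s = 1 ∨ ε ^ s = -1 := by
  rcases h with rfl | rfl
  · left; rw [one_pow]
  · exact neg_one_pow_eq_or ℤ s

/-- `m - 1` planes -/
theorem exists_ab {m k : ℕ} (hm : 1 ≤ m) (hk : 3 ^ k ∣ Nat.card F - 1 ∨ 3 ^ k ∣ Nat.card F + 1) {ε : ℤ}
    (hε : ε = 1 ∨ ε = -1) : Ab F m ε ((3 ^ k) ^ (m - 1)) := by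
  obtain ⟨ε0, hε0, h⟩ := exists_elt hk
  have h1 := Ab.pow h (m - 1)
  have hs := sign_pow hε0 (m - 1)
  have h2 : ε * ε0 ^ (m - 1) = 1 ∨ ε * ε0 ^ (m - 1) = -1 := by
    rcases hε with rfl | rfl <;> rcases hs with h3 | h3 <;> rw [h3] <;> norm_num
  have h3 := h1.prod (Ab.one (elt_one_pm (F := F) (n := 1) le_rfl h2))
  rw [Nat.sub_add_cancel hm, mul_one] at h3
  have h4 : ε0 ^ (m - 1) * (ε * ε0 ^ (m - 1)) = ε := by
    rcases hs with h5 | h5 <;> rw [h5] <;> ring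
  rwa [h4] at h3

theorem card_big {m k : ℕ} (hm : 3 ≤ m) (hk : k = 2 ∨ (k = 1 ∧ 6 ≤ m)) : 3 ^ 6 ≤ (3 ^ k) ^ m := by
  rw [← pow_mul]
  apply Nat.pow_le_pow_right (by norm_num)
  rcases hk with rfl | ⟨rfl, h⟩ <;> omega

theorem row_oplus {m : ℕ} (hm : 4 ≤ m) (h3 : (3 : F) ≠ 0) : Row (POmega F (quadFormPlus m F)) := by
  rintro ⟨hV, -⟩
  have hG : Good (plusForm m F) := good_plus (by omega)
  have hq : 2 ≤ Nat.card F := Finite.one_lt_card
  have hc := Cfsg.Agent.S0293.result (F := F) (q := Nat.card F) Nat.card_eq_fintype_card.symm m hm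
  have hX : Nat.card (POmega F (quadFormPlus m F)) ∣
      Nat.card F ^ (m * (m - 1)) * ∏ i ∈ Finset.range m, (Nat.card F ^ (2 * (i + 1)) - 1) := by
    refine (Dvd.intro_left _ hc).trans ?_
    rw [mul_assoc]
    apply Nat.mul_dvd_mul_left
    obtain ⟨n, rfl⟩ : ∃ n, m = n + 1 := ⟨m - 1, by omega⟩
    rw [Nat.add_sub_cancel, Finset.prod_range_succ, mul_comm]
    apply Nat.mul_dvd_mul_left
    rw [mul_comm 2, pow_mul]
    exact Nat.sub_one_dvd_pow_sub_one _ _ 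
  obtain ⟨k, hk, hk'⟩ := exists_k hq (not_three_dvd h3) (nine_or_rank hq (not_three_dvd h3) hV hX)
  obtain ⟨A, _, _, R, ρ, hA, hN, hρ, hR, hs, hg⟩ := exists_ab (m := m) (by omega) hk (ε := 1) (Or.inl rfl)
  obtain ⟨e, he⟩ := exists_plus (by omega) (by rw [Module.finrank_fin_fun]) R hR hs
  have hb := big_of hG e 1 one_ne_zero (R := R) (fun u => by rw [he, one_mul, coe_plusForm]) ρ hA hρ hg (by
    rw [hN]
    exact card_big (by omega) (by omega))
  have e2 := pomegaEquiv hG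
  rw [coe_plusForm] at e2
  exact hb.congr e2.symm

theorem row_ominus {m : ℕ} (hm : 4 ≤ m) {a b : F}
    (hab : ∀ z₁ z₂ : F, z₁ ^ 2 + a * z₁ * z₂ + b * z₂ ^ 2 = 0 → z₁ = 0 ∧ z₂ = 0) (h3 : (3 : F) ≠ 0) :
    Row (POmega F (quadFormMinus (m - 1) F a b)) := by
  rintro ⟨hV, -⟩
  have hG : Good (minusForm (m - 1) F a b) := good_minus (by omega) a b hab
  have hq : 2 ≤ Nat.card F := Finite.one_lt_card
  have hc := Cfsg.Agent.S0294.result (F := F) (q := Nat.card F) Nat.card_eq_fintype_card.symm m hm a b hab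
  have hX : Nat.card (POmega F (quadFormMinus (m - 1) F a b)) ∣
      Nat.card F ^ (m * (m - 1)) * ∏ i ∈ Finset.range m, (Nat.card F ^ (2 * (i + 1)) - 1) := by
    refine (Dvd.intro_left _ hc).trans ?_
    rw [mul_assoc]
    apply Nat.mul_dvd_mul_left
    obtain ⟨n, rfl⟩ : ∃ n, m = n + 1 := ⟨m - 1, by omega⟩
    rw [Nat.add_sub_cancel, Finset.prod_range_succ, mul_comm]
    apply Nat.mul_dvd_mul_left
    have h2 := Nat.sq_sub_sq (Nat.card F ^ (n + 1)) 1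
    rw [one_pow, ← pow_mul, mul_comm (n + 1) 2] at h2
    rw [h2]
    exact Dvd.intro _ rfl
  obtain ⟨k, hk, hk'⟩ := exists_k hq (not_three_dvd h3) (nine_or_rank hq (not_three_dvd h3) hV hX)
  obtain ⟨A, _, _, R, ρ, hA, hN, hρ, hR, hs, hg⟩ := exists_ab (m := m) (by omega) hk (ε := -1) (Or.inr rfl)
  obtain ⟨e, he⟩ := exists_minus (by omega) (by rw [Module.finrank_fin_fun]) R hR hs hab
  have hb := big_of hG e 1 one_ne_zero (R := R) (fun u => by rw [he, one_mul, coe_minusForm]) ρ hA hρ hg (by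
    rw [hN]
    exact card_big (by omega) (by omega))
  have e2 := pomegaEquiv hG
  rw [coe_minusForm] at e2
  exact hb.congr e2.symm

theorem row_oodd {m : ℕ} (hm : 3 ≤ m) (ho : Odd (Fintype.card F)) (h3 : (3 : F) ≠ 0) :
    Row (POmega F (quadFormOdd m F)) := by
  rintro ⟨hV, -⟩
  have h2 : (2 : F) ≠ 0 := Cfsg.Agent.LieClassical.PomegaCard.odd_card_iff.1 ho
  have hG : Good (oddForm m F) := good_odd (by omega) h2
  have hq : 2 ≤ Nat.card F := Finite.one_lt_card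
  have hc := Cfsg.Agent.S0292.result (F := F) (q := Nat.card F) Nat.card_eq_fintype_card.symm
    (by rwa [Nat.card_eq_fintype_card]) m hm
  have hX : Nat.card (POmega F (quadFormOdd m F)) ∣
      Nat.card F ^ (m ^ 2) * ∏ i ∈ Finset.range m, (Nat.card F ^ (2 * (i + 1)) - 1) := Dvd.intro_left _ hc
  obtain ⟨k, hk, hk'⟩ := exists_k hq (not_three_dvd h3) (nine_or_rank hq (not_three_dvd h3) hV hX)
  obtain ⟨ε0, hε0, h⟩ := exists_elt hk
  obtain ⟨A, _, _, R, ρ, hA, hN, hρ, hR, hs, hg⟩ := Ab.pow h m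
  let Q₁ : QuadraticForm F F := QuadraticMap.sq
  have hQ₁ : Nondeg Q₁ := by
    intro x hx
    have h3 := hx 1
    simp only [polar, Q₁, QuadraticMap.sq_apply] at h3
    have h4 : 2 * x = 0 := by linear_combination h3
    exact (mul_eq_zero.1 h4).resolve_left h2
  have hfr : Module.finrank F ((Fin (2 * m) → F) × F) = 2 * m + 1 := by
    rw [Module.finrank_prod, Module.finrank_fin_fun, Module.finrank_self]
  obtain ⟨c, e, hc0, he⟩ := exists_similar_odd hfr (sumQ R Q₁) (sumQ_nondeg hR hQ₁)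
  let σ : A →* Module.End F ((Fin (2 * m) → F) × F) :=
    { toFun := fun a => (ρ a).prodMap 1
      map_one' := by
        apply LinearMap.ext
        intro v
        simp
      map_mul' := fun a b => by
        apply LinearMap.ext
        intro v
        simp }
  have hσ : ∀ a v, σ a v = (ρ a v.1, v.2) := fun a v => rfl
  have hb := big_of hG e c hc0 (R := sumQ R Q₁) he σ hA ?_ ?_ (by
    rw [hN]
    exact card_big (by omega) (by omega))
  · have e2 := pomegaEquiv hG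
    rw [coe_oddForm] at e2
    exact hb.congr e2.symm
  · intro a b hab
    apply hρ
    apply LinearMap.ext
    intro v
    have h5 := LinearMap.congr_fun hab (v, 0)
    rw [hσ, hσ] at h5
    exact congrArg Prod.fst h5
  · intro a v
    rw [hσ, sumQ_apply, sumQ_apply, hg]

end

end Cfsg.Agent.H377.ThreeRow
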